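import Mathlib
import Cfsg.Agent.Lib.PLocal.FFApply
import Cfsg.Agent.Lib.ZJ.Thompson
import Cfsg.Agent.Lib.Block.PPart
import Cfsg.Agent.Lib.Coprime.Abelian

/-! Failure of factorization for the abelian version of the Thompson subgroup, `p = 2`. -/

set_option autoImplicit false

namespace CfsgLib.PLocal.FFAbel

open Subgroup Cfsg CfsgLib.PLocal CfsgLib.PLocal.FF CfsgLib.PLocal.Holo
open scoped MatrixGroups commutatorElement

variable {G : Type*} [Group G] [Finite G]

theorem two_mul_card_le {H K : Subgroup G} (h : H < K) : 2 * Nat.card H ≤ Nat.card K := by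
  rw [← Core.card_mul_relIndex_of_le h.le, mul_comm]
  refine Nat.mul_le_mul_left _ ?_
  have h0 : H.relIndex K ≠ 0 := index_ne_zero_of_finite
  have h1 : H.relIndex K ≠ 1 := fun e => h.not_ge (relIndex_eq_one.1 e)
  omega

/-- a `2`-group acts on a four-group through a group of order at most two -/
theorem relIndex_le_two {P A : Subgroup G} (hP : IsElementaryAbelian 2 P) (hc : Nat.card P = 4)
    (hA : IsPGroup 2 A) (hAP : A ≤ normalizer (P : Set G)) :
    (centralizer (P : Set G)).relIndex A ≤ 2 := by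
  by_cases h0 : P ≤ centralizer (A : Set G)
  · rw [relIndex_eq_one.2 (le_centralizer_iff.1 h0)]; omega
  have hP0 : P ≠ ⊥ := fun e => by rw [e, card_bot] at hc; omega
  have h1 := two_mul_card_le
    (Coprime.commutator_lt_of_isPGroup (elemAb_isPGroup hP) hA hAP hP0)
  have h2 := Coprime.inf_centralizer_ne_bot_of_isPGroup hA P (elemAb_isPGroup hP) hAP hP0
  obtain ⟨w, hw, hw'⟩ := SetLike.not_le_iff_exists.1 h0
  have h3 : P ⊓ centralizer (A : Set G) ⊔ zpowers w = P := by
    refine eq_of_le_of_card_ge (sup_le inf_le_left (zpowers_le.2 hw)) ?_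
    have a1 := two_mul_card_le (bot_lt_iff_ne_bot.2 h2)
    have a2 := two_mul_card_le (H := P ⊓ centralizer (A : Set G))
      (left_lt_sup.2 fun h : zpowers w ≤ _ => hw' (h (mem_zpowers w)).2)
    rw [card_bot] at a1
    omega
  refine (index_le_card_of_fibers (X := ↥⁅P, A⁆) _
    (fun a : A => ⟨⁅w, (a : G)⁆, commutator_mem_commutator hw a.2⟩) fun a b hab => ?_).trans
    (by omega)
  have e : ⁅w, (a : G)⁆ = ⁅w, (b : G)⁆ := congrArg Subtype.val hab
  rw [mem_subgroupOf, ← zpowers_le, le_centralizer_iff, ← h3, sup_le_iff]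
  refine ⟨inf_le_right.trans (centralizer_le (zpowers_le.2 (a⁻¹ * b).2)), ?_⟩
  rw [zpowers_le, mem_centralizer_iff]
  rintro _ ⟨i, rfl⟩
  refine (Commute.zpow_left (?_ : Commute ((a : G)⁻¹ * b) w) i).eq
  simp only [commutatorElement_def, mul_assoc, mul_right_inj] at e
  rw [← Commute.inv_right_iff]
  change (a : G)⁻¹ * b * w⁻¹ = w⁻¹ * ((a : G)⁻¹ * b)
  calc (a : G)⁻¹ * b * w⁻¹ = (a : G)⁻¹ * (b * (w⁻¹ * (b : G)⁻¹)) * b := by group
    _ = _ := by rw [← e]; group

/-- abelian best offenders are elementary -/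
theorem sq_eq_one {V H Q : Subgroup G} (h : FFData 2 V H Q) (A : Subgroup G) (hAH : A ≤ H)
    (hA : IsPGroup 2 A) (hA0 : IsBestOffenderOn 0 V A) : ∀ a ∈ A, a ^ 2 = 1 := by
  induction A using WellFoundedLT.induction with
  | ind A ih =>
  by_cases hA1 : A = ⊥
  · subst hA1
    intro a ha
    rw [mem_bot.1 ha, one_pow]
  have hAV := hAH.trans h.norm
  have hAA : ⁅A, A⁆ = ⊥ := by
    rw [eq_bot_iff, ← h.faithful]
    exact le_inf (Core.commutator_le_of_le hAH hAH) hA0.2.1
  have hAC : A ≤ centralizer (A : Set G) := commutator_eq_bot_iff_le_centralizer.1 hAA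
  obtain ⟨h1, h2⟩ := replacement h.elem.1 hAV hA0.2.1 hA0.1 (le_refl V)
  have hW := commutator_le_of_le_of_normalizes hAV (le_refl V)
  have h3 : IsBestOffenderOn 2 V (A ⊓ centralizer ((⁅V, A⁆ : Subgroup G) : Set G)) := by
    refine ⟨fun B hB => (hA0.1 B (hB.trans inf_le_left)).trans h2.le,
      (commutator_mono inf_le_left inf_le_left).trans hA0.2.1, fun a ha => ?_⟩
    refine pow_mem_centralizer_of_quadratic h.elem (hAV ha.1) ?_
    rw [commutator_eq_bot_iff_le_centralizer, le_centralizer_iff, zpowers_le]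
    exact centralizer_le (commutator_mono le_rfl (zpowers_le.2 ha.1)) ha.2
  have h4 : A ⊓ centralizer ((⁅V, A⁆ : Subgroup G) : Set G) ≠ ⊥ := by
    intro e
    rw [e, inf_eq_left.2 (le_centralizer_iff.1 bot_le)] at h1
    have h5 := Coprime.commutator_lt_of_isPGroup ((elemAb_isPGroup h.elem).to_le hW) hA
      (normalizer_commutator_ge_right V A) fun e' => hA1 (h.eq_bot_of_commutator hAH e')
    apply h5.not_ge
    conv_lhs => rw [h1]
    rw [commutator_sup_of_le_comm h.elem.1 hAV hW inf_le_left,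
      commutator_eq_bot_iff_le_centralizer.mpr (inf_le_right : V ⊓ _ ≤ centralizer (A : Set G)),
      sup_bot_eq]
  obtain ⟨B, hB, hBm⟩ : {B | B ≤ A ⊓ centralizer ((⁅V, A⁆ : Subgroup G) : Set G) ∧
      IsMinOffender 2 V B}.Nonempty := by
    rw [Set.nonempty_iff_ne_empty]
    intro e
    have := h.sSup_isMinOffender (inf_le_left.trans hAH) h3
    rw [e, sSup_empty] at this
    exact h4 this.symm
  have hBA : B ≤ A := hB.trans inf_le_left
  have hE := h.isSL2Plane_ffFactor (hBA.trans hAH) hBm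
  have hPV : ⁅V, ffFactor Q B⁆ ≤ V :=
    commutator_le_of_le_of_normalizes ((h.ffFactor_le (hBA.trans hAH)).trans h.norm) le_rfl
  have hAP : A ≤ normalizer ((⁅V, ffFactor Q B⁆ : Subgroup G) : Set G) := by
    intro a ha
    have hB' := le_normalizer_of_le_centralizer (hAC.trans (centralizer_le hBA)) ha
    refine mem_normalizer_commutator (hAV ha) ?_
    exact normalizer_inf_normalizer_le_normalizer_sup _ _
      ⟨mem_normalizer_commutator (h.normQ (hAH ha)) hB', hB'⟩
  have hBP : ¬ B ≤ centralizer ((⁅V, ffFactor Q B⁆ : Subgroup G) : Set G) := fun e => by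
    have : B = ⊥ := eq_bot_iff.2 (hE.faithful ▸ le_inf le_sup_right e)
    exact hBm.2.1 (by rw [this, commutator_bot_right])
  have hi := relIndex_le_two (elemAb_mono h.elem hPV) hE.card_comm hA hAP
  generalize ⁅V, ffFactor Q B⁆ = P at *
  have hi2 : (centralizer (P : Set G)).relIndex A = 2 := by
    have h0 : (centralizer (P : Set G)).relIndex A ≠ 0 := index_ne_zero_of_finite
    have h1 : (centralizer (P : Set G)).relIndex A ≠ 1 :=
      fun e => hBP (hBA.trans (relIndex_eq_one.1 e))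
    omega
  have hlt : centralizer (P : Set G) ⊓ A < A :=
    inf_lt_right.2 fun e => hBP (hBA.trans e)
  have h5 := ih _ hlt (inf_le_right.trans hAH) (hA.to_le inf_le_right)
    (bestOffender_of_le_of_card_le hA0 inf_le_right (by
      have a1 := two_mul_card_le (H := V ⊓ centralizer (A : Set G))
        (K := V ⊓ centralizer ((centralizer (P : Set G) ⊓ A : Subgroup G) : Set G))
        (lt_of_le_not_ge (inf_le_inf_left _ (centralizer_le inf_le_right)) fun e => hBP
          (hBA.trans (le_centralizer_iff.1 ((le_inf hPV (le_centralizer_iff.1 inf_le_left)).trans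
            (e.trans inf_le_right)))))
      rw [card_eq_relIndex_mul (centralizer (P : Set G)) A, hi2]
      nlinarith))
  intro a ha
  by_cases haP : a ∈ centralizer (P : Set G)
  · exact h5 a ⟨haP, ha⟩
  obtain ⟨b, hb, hbP⟩ := SetLike.not_le_iff_exists.1 hBP
  have h6 : (⟨a, ha⟩ * ⟨b, hBA hb⟩ : A) ∈ (centralizer (P : Set G)).subgroupOf A :=
    (mul_mem_iff_of_index_two hi2).2 (iff_of_false haP hbP)
  have h7 := h5 (a * b) ⟨h6, mul_mem ha (hBA hb)⟩
  rwa [Commute.mul_pow (hAC (hBA hb) a ha), (h.elemAb (hBA.trans hAH) hBm.1).2 b hb, mul_one] at h7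

/-- the permutation action on the even weight vectors -/
def s3 (σ : Equiv.Perm (Fin 3)) : SL(2, ZMod 2) :=
  ⟨!![![1, 0, 1] (σ⁻¹ 0), ![0, 1, 1] (σ⁻¹ 0); ![1, 0, 1] (σ⁻¹ 1), ![0, 1, 1] (σ⁻¹ 1)], by
    rw [Matrix.det_fin_two]; revert σ; decide⟩

theorem s3_equiv : Nonempty (SL(2, ZMod 2) ≃* Equiv.Perm (Fin 3)) := by
  let f : Equiv.Perm (Fin 3) →* SL(2, ZMod 2) := MonoidHom.mk' s3 (by decide +kernel)
  have hf : Function.Injective f := (injective_iff_map_eq_one f).2 (by decide +kernel)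
  refine ⟨(MulEquiv.ofBijective f ((Nat.bijective_iff_injective_and_card f).2 ⟨hf, ?_⟩)).symm⟩
  rw [card_SL2_zmod, Nat.card_perm]; simp [Nat.factorial]

theorem pi_equiv {V H : Subgroup G} (h : FFHyp 2 V H) :
    ∃ n : ℕ, 1 ≤ n ∧ Nonempty (H ≃* (Fin n → Equiv.Perm (Fin 3))) := by
  classical
  let ι := {E : Subgroup G // Factor 2 V H E}
  choose π hπ using fun E : ι => h.exists_proj E.2
  let Φ : H →* (ι → SL(2, ZMod 2)) := MonoidHom.pi π
  have hinj : Function.Injective Φ := (injective_iff_map_eq_one Φ).2 fun x hx => by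
    have h1 := (Cfsg.Agent.S0617.result V H h.1 h.2 h.3 h.4 h.5 h.6).2.2.2.2.2
    have h2 : (x : G) ∈ H ⊓ centralizer (V : Set G) := by
      refine mem_inf.2 ⟨x.2, ?_⟩
      rw [← zpowers_le, le_centralizer_iff, ← h1]
      refine sup_le (inf_le_right.trans (centralizer_le (zpowers_le.2 x.2))) (iSup_le fun E => ?_)
      rw [le_centralizer_iff, zpowers_le]
      exact ((hπ E).1 x).1 (congrFun hx E)
    rw [h.hf] at h2
    exact Subtype.ext h2
  have hsurj : Function.Surjective Φ := fun y => by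
    refine pi_mem_of_mulSingle_mem (H := Φ.range) y fun E => ?_
    obtain ⟨x, hx, e⟩ := (hπ E).2 (y E)
    refine ⟨x, funext fun E' => ?_⟩
    by_cases hE : E' = E
    · subst hE; simpa [Φ] using e
    · rw [Pi.mulSingle_eq_of_ne hE]
      exact ((hπ E').1 x).2 (h.le_centralizer_commutator E'.2 E.2
        (fun e => hE (Subtype.ext e)) hx)
  obtain ⟨e⟩ := s3_equiv
  obtain ⟨E, hE⟩ := h.exists_factor
  have : Nonempty ι := ⟨⟨E, hE⟩⟩
  exact ⟨Nat.card ι, Nat.card_pos, ⟨(MulEquiv.ofBijective Φ ⟨hinj, hsurj⟩).trans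
    (MulEquiv.arrowCongr (Finite.equivFin ι) e)⟩⟩

theorem bestOffender_zero_mono {V W A : Subgroup G} (hWV : W ≤ V) (h : IsBestOffenderOn 0 V A) :
    IsBestOffenderOn 0 W A := by
  refine ⟨fun B hB => ?_, h.2.1.trans (centralizer_le hWV), fun a _ => by simp⟩
  have e : ∀ U : Subgroup G, Nat.card ↥(U ⊓ centralizer (B : Set G)) =
      (centralizer (A : Set G)).relIndex (U ⊓ centralizer (B : Set G)) *
        Nat.card ↥(U ⊓ centralizer (A : Set G)) := fun U => by
    rw [card_eq_relIndex_mul (centralizer (A : Set G)), inf_left_comm,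
      inf_eq_left.2 (centralizer_le hB)]
  have h1 := h.1 B hB
  rw [e V, ← mul_assoc] at h1
  rw [e W, ← mul_assoc]
  refine Nat.mul_le_mul_right _ (le_trans (Nat.mul_le_mul_left _ ?_)
    (Nat.le_of_mul_le_mul_right h1 Nat.card_pos))
  exact relIndex_le_of_le_right (inf_le_inf_right _ hWV) index_ne_zero_of_finite

/-- the normal closure of the centre of a Sylow `2`-subgroup -/
def VV (G : Type*) [Group G] : Subgroup G :=
  ⨆ S : Sylow 2 G, (S : Subgroup G) ⊓ centralizer ((S : Subgroup G) : Set G)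

omit [Finite G] in
theorem le_VV (S : Sylow 2 G) : (S : Subgroup G) ⊓ centralizer ((S : Subgroup G) : Set G) ≤ VV G :=
  le_iSup (fun S : Sylow 2 G => (S : Subgroup G) ⊓ centralizer ((S : Subgroup G) : Set G)) S

omit [Finite G] in
theorem map_cen (S : Sylow 2 G) (g : G) :
    ((S : Subgroup G) ⊓ centralizer ((S : Subgroup G) : Set G)).map (MulAut.conj g).toMonoidHom =
      ((g • S : Sylow 2 G) : Subgroup G) ⊓
        centralizer (((g • S : Sylow 2 G) : Subgroup G) : Set G) := by
  have := map_omegaOne_center (p := 0) (f := (MulAut.conj g).toMonoidHom) (MulAut.conj g).injective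
    (S : Subgroup G)
  rwa [ZJ.omegaOne_zero, ZJ.omegaOne_zero] at this

instance : (VV G).Normal := ⟨fun n hn g => by
  have : (VV G).map (MulAut.conj g).toMonoidHom ≤ VV G := by
    rw [VV, Subgroup.map_iSup]
    exact iSup_le fun S => map_cen S g ▸ le_VV _
  exact this (mem_map_of_mem _ hn)⟩

theorem normalCore_eq (T : Sylow 2 G) : (centralizer (((T : Subgroup G) ⊓
    centralizer ((T : Subgroup G) : Set G) : Subgroup G) : Set G)).normalCore =
      centralizer (VV G : Set G) := by
  refine le_antisymm ?_ (normal_le_normalCore.2 (centralizer_le (le_VV T)))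
  rw [le_centralizer_iff]
  refine iSup_le fun S => ?_
  obtain ⟨g, rfl⟩ := MulAction.exists_smul_eq G T S
  rw [← map_cen]
  rintro _ ⟨z, hz, rfl⟩ x hx
  have := hx g⁻¹ z hz
  change x * (g * z * g⁻¹) = g * z * g⁻¹ * x
  calc x * (g * z * g⁻¹) = g * (g⁻¹ * x * g⁻¹⁻¹ * z) * g⁻¹ := by group
    _ = _ := by rw [← this]; group

section

variable (hc : centralizer (pCore 2 G : Set G) ≤ pCore 2 G)
include hc

omit [Finite G] in
theorem VV_le : VV G ≤ pCore 2 G := iSup_le fun S =>
  inf_le_right.trans ((centralizer_le (Core.pCore_le_sylow S)).trans hc)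

omit [Finite G] in
theorem VV_comm : IsMulCommutative (VV G) := by
  refine commutator_self_eq_bot_iff.1 (commutator_eq_bot_iff_le_centralizer.2 ?_)
  exact iSup_le fun S => inf_le_right.trans
    (centralizer_le ((VV_le hc).trans (Core.pCore_le_sylow S)))

omit hc [Finite G] in
theorem pCore_VV [Finite G] : pCore 2 (G ⧸ centralizer (VV G : Set G)) = ⊥ :=
  pCore_quotient_centralizer_eq_bot (iSup_mono fun S => le_inf (le_VV S) inf_le_right)

instance : (omegaOne 2 (VV G)).Normal := normalizer_eq_top_iff.1 (top_le_iff.1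
  ((normalizer_eq_top (VV G)).ge.trans (normalizer_le_normalizer_omegaOne _)))

theorem cent_omega : centralizer (omegaOne 2 (VV G) : Set G) = centralizer (VV G : Set G) := by
  refine le_antisymm ?_ (centralizer_le (omegaOne_le _))
  have := VV_comm hc
  have hV : IsPGroup 2 (VV G) := PSolv.isPGroup_pCore.to_le (VV_le hc)
  rw [← QuotientGroup.ker_mk' (centralizer (VV G : Set G)), ← Subgroup.map_eq_bot_iff, eq_bot_iff,
    ← pCore_VV]
  refine PSolv.le_pCore (Normal.map inferInstance _ (QuotientGroup.mk'_surjective _)) ?_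
  rintro ⟨_, y, hy, rfl⟩
  obtain ⟨a, ha⟩ := Block.exists_isPPart Nat.prime_two y
  have h1 := Block.isPPart_mem Nat.prime_two ha hy
  obtain ⟨b, rfl, -, ⟨k, hk⟩, hb⟩ := ha
  have h2 := (mul_mem_cancel_left h1).1 hy
  have h3 : b ∈ centralizer (VV G : Set G) := by
    rw [← zpowers_le]
    refine Coprime.le_centralizer_of_forall_prime_orderOf le_normalizer_of_normal
      (Coprime.coprime_card_of_isPGroup hV ?_) fun v hv hp a ha => ?_
    · rw [Nat.card_zpowers]
      exact (Nat.prime_two.coprime_iff_not_dvd.2 hb).symm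
    · obtain ⟨j, hj⟩ := Block.pElt_of_mem_isPGroup Nat.prime_two hV hv
      have h4 : orderOf v = 2 := (Nat.prime_dvd_prime_iff_eq hp Nat.prime_two).1
        (hp.dvd_of_dvd_pow hj.dvd)
      exact (zpowers_le.2 h2 ha v (mem_omegaOne hv (h4 ▸ pow_orderOf_eq_one v))).symm
  refine ⟨k, Subtype.ext ?_⟩
  change ((a * b : G) : G ⧸ centralizer (VV G : Set G)) ^ 2 ^ k = 1
  rw [QuotientGroup.mk_mul, (QuotientGroup.eq_one_iff b).2 h3, mul_one, ← QuotientGroup.mk_pow,
    ← hk, pow_orderOf_eq_one, QuotientGroup.mk_one]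

theorem ffHyp [Group.IsSolvable G] (T : Sylow 2 G)
    (hne : ¬ normalClosure (thompsonSubgroupOf 0 (T : Subgroup G) : Set G) ≤
      centralizer (VV G : Set G)) :
    FFHyp 2 (im (omegaOne 2 (VV G)) (omegaOne 2 (VV G)))
      ((normalClosure (thompsonSubgroupOf 0 (T : Subgroup G) : Set G)).map
        (rho (omegaOne 2 (VV G)))) := by
  set W := omegaOne 2 (VV G)
  set Y := normalClosure (thompsonSubgroupOf 0 (T : Subgroup G) : Set G)
  have hW : IsElementaryAbelian 2 W := elemAb_omegaOne (VV_comm hc)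
  have hO : pCore 2 (rho W).range = ⊥ := pCore_range_eq_bot ((PSolv.pCore_eq_bot_equiv
    (QuotientGroup.quotientMulEquivOfEq (cent_omega hc))).2 pCore_VV)
  have hS1 : centralizer (pPrimeCore 2 (Y.map (rho W)) : Set (Y.map (rho W))) ≤ pPrimeCore 2 _ := by
    refine centralizer_pPrimeCore_le (PSolv.map PSolv.of_isSolvable _)
      (pCore_eq_bot_of_le_normalizer (map_le_range _ _) ?_ hO)
    rw [MonoidHom.range_eq_map]
    exact (map_mono (normalizer_eq_top Y).ge).trans (le_normalizer_map _)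
  have hD := ffData_pPrimeCore (elemAb_im hW) (map_rho_le_normalizer Y)
    (map_rho_inf_centralizer Y) hS1
  refine ⟨hD.elem, hD.norm, hD.faithful, hS1, le_antisymm ?_ (iSup_le fun A => A.2.1),
    fun e => hne (cent_omega hc ▸ map_rho_eq_bot_iff.1 e)⟩
  rw [map_le_iff_le_comap]
  refine (closure_le _).2 fun x hx => ?_
  obtain ⟨y, hy, hyx⟩ := Group.mem_conjugatesOfSet_iff.mp hx
  obtain ⟨g, rfl⟩ := isConj_iff.mp hyx
  have e := map_thompsonSubgroupOf (p := 0) (f := (MulAut.conj g).toMonoidHom)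
    (MulAut.conj g).injective (T : Subgroup G)
  have hJ : thompsonSubgroupOf 0 ((g • T : Sylow 2 G) : Subgroup G) ≤ Y := by
    refine e.ge.trans ?_
    rintro _ ⟨z, hz, rfl⟩
    exact Normal.conj_mem inferInstance _ (le_normalClosure hz) g
  refine (thompsonSubgroupOf_le_iff (p := 0) (U := ((g • T : Sylow 2 G) : Subgroup G))).2
    (fun A hA => ?_) (e.le (mem_map_of_mem _ hy))
  have hAY := map_mono (f := rho W) ((le_thompsonSubgroupOf hA).trans hJ)
  have h0 := bestOffender_map (bestOffender_zero_mono (omegaOne_le (p := 2) _)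
    (bestOffender_of_mem_maxElemIn ⟨VV_comm hc, fun a _ => pow_zero a⟩
      ((VV_le hc).trans (Core.pCore_le_sylow _)) hA))
  have h1 := sq_eq_one hD _ hAY (((g • T).isPGroup'.to_le hA.1).map _) h0
  rw [← map_le_iff_le_comap]
  exact le_iSup_of_le ⟨A.map (rho W), hAY, h0.1, h0.2.1, fun a ha => h1 a ha ▸ one_mem _⟩ le_rfl

theorem exists_equiv [Group.IsSolvable G] (T : Sylow 2 G) {Y C : Subgroup G} [C.Normal]
    (hY : Y = normalClosure (thompsonSubgroupOf 0 (T : Subgroup G) : Set G))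
    (hC : C = centralizer (VV G : Set G)) (hne : ¬ Y ≤ C) :
    ∃ n : ℕ, 1 ≤ n ∧ Nonempty (Y ⧸ C.subgroupOf Y ≃* (Fin n → Equiv.Perm (Fin 3))) := by
  subst hY hC
  obtain ⟨n, hn, ⟨e⟩⟩ := pi_equiv (ffHyp hc T hne)
  refine ⟨n, hn, ⟨(QuotientGroup.quotientMulEquivOfEq ?_).trans
    ((QuotientGroup.quotientKerEquivOfSurjective _ (MonoidHom.subgroupMap_surjective _ _)).trans
      e)⟩⟩
  ext x
  rw [mem_subgroupOf, ← cent_omega hc, ← rho_eq_one_iff, MonoidHom.mem_ker, Subtype.ext_iff]
  rfl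

end

theorem frattini_J (T : Sylow 2 G) :
    normalClosure (thompsonSubgroupOf 0 (T : Subgroup G) : Set G) ⊔
      normalizer (thompsonSubgroupOf 0 (T : Subgroup G) : Set G) = ⊤ := by
  refine eq_top_iff.2 fun g _ => ?_
  obtain ⟨l, hl, hg⟩ := ZJ.exists_mul_mem_normalizer_inf T
    (normalClosure (thompsonSubgroupOf 0 (T : Subgroup G) : Set G)) g
  have h2 := normalizer_le_normalizer_thompsonSubgroupOf (p := 0) _ hg
  rw [thompsonSubgroupOf_eq_of_le inf_le_left
    (le_inf (thompsonSubgroupOf_le _) le_normalClosure)] at h2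
  simpa using mul_mem (mem_sup_right h2) (inv_mem (mem_sup_left hl))

end CfsgLib.PLocal.FFAbel
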